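/-
Two commuting Majorana involutions: the dihedral algebras of types 2A and 2B.
-/
import Cfsg.Prelude.Def_AxialAlgebras

set_option autoImplicit false
set_option linter.unusedVariables false
set_option linter.unusedSectionVars false

namespace CfsgLib.MajoranaComm

open Cfsg Cfsg.Axial

variable {V : Type*} [AddCommGroup V] [Module ℝ V]

variable {mul : V →ₗ[ℝ] V →ₗ[ℝ] V} {B : LinearMap.BilinForm ℝ V}

theorem mem_eigen {a v : V} {c : ℝ} : v ∈ eigen mul a c ↔ mul a v = c • v := by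
  unfold eigen
  rw [Module.End.mem_eigenspace_iff]

/-- eigenspaces move with an automorphism -/
theorem mem_eigen_map (σ : V ≃ₗ[ℝ] V) (hσ : ∀ u v : V, σ (mul u v) = mul (σ u) (σ v)) {a : V} {c : ℝ} {v : V} :
    v ∈ eigen mul (σ a) c ↔ σ.symm v ∈ eigen mul a c := by
  rw [mem_eigen, mem_eigen]
  constructor
  · intro h
    apply σ.injective
    rw [hσ, map_smul]
    simpa using h
  · intro h
    have h2 := congrArg σ h
    rw [hσ, map_smul] at h2
    simpa using h2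

theorem eigen_map (σ : V ≃ₗ[ℝ] V) (hσ : ∀ u v : V, σ (mul u v) = mul (σ u) (σ v)) (a : V) (c : ℝ) :
    eigen mul (σ a) c = (eigen mul a c).map (σ : V →ₗ[ℝ] V) := by
  ext v
  rw [mem_eigen_map σ hσ, Submodule.mem_map]
  constructor
  · intro h
    exact ⟨_, h, by simp⟩
  · rintro ⟨w, hw, rfl⟩
    simpa using hw

theorem eigenSum_map (σ : V ≃ₗ[ℝ] V) (hσ : ∀ u v : V, σ (mul u v) = mul (σ u) (σ v)) (a : V) (S : Set ℝ) :
    eigenSum mul (σ a) S = (eigenSum mul a S).map (σ : V →ₗ[ℝ] V) := by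
  unfold eigenSum
  simp only [Submodule.map_iSup, eigen_map σ hσ]

/-- transport of a Majorana pair along a commuting automorphism -/
theorem pair_transport {μ σ : V ≃ₗ[ℝ] V} {a : V} (h : IsMajoranaPair mul B μ a)
    (hσ : ∀ u v : V, σ (mul u v) = mul (σ u) (σ v)) (hc : σ * μ = μ * σ) :
    IsMajoranaPair mul B μ (σ a) := by
  obtain ⟨h1, h2, ⟨⟨ha0, haa, htop, hfus⟩, hprim⟩, hm1, hm2⟩ := h
  have hcomm : ∀ v, μ (σ v) = σ (μ v) := fun v => by
    have := congrArg (fun f : V ≃ₗ[ℝ] V => f v) hc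
    exact this.symm
  refine ⟨h1, h2, ⟨⟨?_, ?_, ?_, ?_⟩, ?_⟩, ?_, ?_⟩
  · intro h0
    apply ha0
    apply σ.injective
    rw [h0, map_zero]
  · rw [← hσ, haa]
  · rw [eigenSum_map σ hσ, htop, Submodule.map_top, LinearEquiv.range]
  · intro c hc' d hd u hu v hv
    rw [eigenSum_map σ hσ, Submodule.mem_map]
    refine ⟨mul (σ.symm u) (σ.symm v), hfus c hc' d hd _ ((mem_eigen_map σ hσ).mp hu) _ ((mem_eigen_map σ hσ).mp hv), ?_⟩
    show σ _ = _
    rw [hσ]
    simp
  · rw [eigen_map σ hσ, hprim, Submodule.map_span, Set.image_singleton]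
    rfl
  · intro v hv
    rw [eigenSum_map σ hσ, Submodule.mem_map] at hv
    obtain ⟨w, hw, rfl⟩ := hv
    show μ (σ w) = σ w
    rw [hcomm]
    have := hm1 w hw
    show σ (μ w) = σ w
    exact congrArg σ this
  · intro v hv
    rw [eigen_map σ hσ, Submodule.mem_map] at hv
    obtain ⟨w, hw, rfl⟩ := hv
    show μ (σ w) = - σ w
    rw [hcomm]
    have : μ w = -w := hm2 w hw
    rw [this, map_neg]

/-- decomposition into eigenvectors -/
theorem decomp {a : V} (h : eigenSum mul a majoranaSpectrum = ⊤) (v : V) :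
    ∃ x₁ ∈ eigen mul a 1, ∃ x₀ ∈ eigen mul a 0, ∃ x₄ ∈ eigen mul a (1 / 4), ∃ x₃ ∈ eigen mul a (1 / 32),
      v = x₁ + x₀ + x₄ + x₃ := by
  have hv : v ∈ eigenSum mul a majoranaSpectrum := by rw [h]; trivial
  unfold eigenSum majoranaSpectrum at hv
  simp only [iSup_insert, iSup_singleton] at hv
  obtain ⟨x₁, hx₁, y, hy, rfl⟩ := Submodule.mem_sup.mp hv
  obtain ⟨x₀, hx₀, y', hy', rfl⟩ := Submodule.mem_sup.mp hy
  obtain ⟨x₄, hx₄, x₃, hx₃, rfl⟩ := Submodule.mem_sup.mp hy'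
  exact ⟨x₁, hx₁, x₀, hx₀, x₄, hx₄, x₃, hx₃, by abel⟩

/-- The computation for one axis. -/
theorem half {μ : V ≃ₗ[ℝ] V} {a b : V} (hV : IsMajoranaAmbient mul B) (h : IsMajoranaPair mul B μ a)
    (hbb : mul b b = b) (hμ : μ b = b) (hn : B a a = 1) :
    mul a (mul a b) = ((3 / 4 : ℝ) * B a b) • a + (1 / 4 : ℝ) • mul a b ∧
    mul (b + (3 * B a b) • a - (4 : ℝ) • mul a b) ((4 : ℝ) • mul a b - (4 * B a b) • a) =
      (1 / 2 - B a b / 4 : ℝ) • ((4 : ℝ) • mul a b - (4 * B a b) • a) ∧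
    B ((4 : ℝ) • mul a b - (4 * B a b) • a) ((4 : ℝ) • mul a b - (4 * B a b) • a) = 4 * (B a b - B a b * B a b) := by
  obtain ⟨hcomm, hsym, hpos, hassoc, hnorton⟩ := hV
  obtain ⟨h1, h2, ⟨⟨ha0, haa, htop, hfus⟩, hprim⟩, hm1, hm2⟩ := h
  obtain ⟨x₁, hx₁, s, hs, r, hr, x₃, hx₃, hb⟩ := decomp htop b
  -- the `1/32` part vanishes
  have hx₃0 : x₃ = 0 := by
    have e1 : μ (x₁ + s + r) = x₁ + s + r := by
      apply hm1
      unfold eigenSum
      simp only [iSup_insert, iSup_singleton]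
      refine Submodule.add_mem _ (Submodule.add_mem _ ?_ ?_) ?_
      · exact Submodule.mem_sup_left hx₁
      · exact Submodule.mem_sup_right (Submodule.mem_sup_left hs)
      · exact Submodule.mem_sup_right (Submodule.mem_sup_right hr)
    have e2 : μ x₃ = -x₃ := hm2 _ hx₃
    have e3 : μ b = x₁ + s + r - x₃ := by
      rw [hb]
      have : x₁ + s + r + x₃ = (x₁ + s + r) + x₃ := rfl
      rw [map_add, e1, e2]
      abel
    rw [hμ, hb] at e3
    have e4 : (2 : ℝ) • x₃ = 0 := by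
      linear_combination (norm := module) e3
    simpa using e4
  subst hx₃0
  rw [add_zero] at hb
  -- coefficient
  rw [hprim, Submodule.mem_span_singleton] at hx₁
  obtain ⟨α', rfl⟩ := hx₁
  have hsE : mul a s = 0 := by
    have := mem_eigen.mp hs
    simpa using this
  have hrE : mul a r = (1 / 4 : ℝ) • r := mem_eigen.mp hr
  have hBs : B a s = 0 := by
    have e1 := hassoc a a s
    rw [hsE, haa, map_zero] at e1
    exact e1.symm
  have hBr : B a r = 0 := by
    have e1 := hassoc a a r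
    rw [hrE, haa, map_smul, smul_eq_mul] at e1
    linarith
  have hα : B a b = α' := by
    rw [hb, map_add, map_add, map_smul, hBs, hBr, hn]
    simp
  rw [hα]
  -- the product `a b`
  have hv : mul a b = α' • a + (1 / 4 : ℝ) • r := by
    rw [hb, map_add, map_add, map_smul, haa, hsE, hrE, add_zero]
  have hrv : r = (4 : ℝ) • mul a b - (4 * α') • a := by
    rw [hv]; module
  have hsv : s = b + (3 * α') • a - (4 : ℝ) • mul a b := by
    rw [hv, hb]; module
  have hfirst : mul a (mul a b) = ((3 / 4 : ℝ) * α') • a + (1 / 4 : ℝ) • mul a b := by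
    rw [hv, map_add, map_smul, map_smul, haa, hrE]
    module
  -- fusion
  have hmem0 : (0 : ℝ) ∈ majoranaSpectrum := by simp [majoranaSpectrum]
  have hmem4 : (1 / 4 : ℝ) ∈ majoranaSpectrum := by simp [majoranaSpectrum]
  have hss : mul s s ∈ eigen mul a 0 := by
    have := hfus 0 hmem0 0 hmem0 s hs s hs
    have hl : monsterLaw (1 / 4 : ℝ) (1 / 32) 0 0 = {0} := by
      unfold monsterLaw
      norm_num
    rw [hl] at this
    unfold eigenSum at this
    simpa only [iSup_singleton] using this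
  have hsr : mul s r ∈ eigen mul a (1 / 4) := by
    have := hfus 0 hmem0 (1 / 4) hmem4 s hs r hr
    have hl : monsterLaw (1 / 4 : ℝ) (1 / 32) 0 (1 / 4) = {1 / 4} := by
      unfold monsterLaw
      norm_num
    rw [hl] at this
    unfold eigenSum at this
    simpa only [iSup_singleton] using this
  have hrr : ∃ c : ℝ, ∃ y₀ ∈ eigen mul a 0, mul r r = c • a + y₀ := by
    have := hfus (1 / 4) hmem4 (1 / 4) hmem4 r hr r hr
    have hl : monsterLaw (1 / 4 : ℝ) (1 / 32) (1 / 4) (1 / 4) = {1, 0} := by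
      unfold monsterLaw
      norm_num
    rw [hl] at this
    unfold eigenSum at this
    simp only [iSup_insert, iSup_singleton] at this
    obtain ⟨y₁, hy₁, y₀, hy₀, e⟩ := Submodule.mem_sup.mp this
    rw [hprim, Submodule.mem_span_singleton] at hy₁
    obtain ⟨c, rfl⟩ := hy₁
    exact ⟨c, y₀, hy₀, e.symm⟩
  obtain ⟨c, y₀, hy₀, hrrE⟩ := hrr
  have hss0 : mul a (mul s s) = 0 := by
    have := mem_eigen.mp hss
    simpa using this
  have hy00 : mul a y₀ = 0 := by
    have := mem_eigen.mp hy₀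
    simpa using this
  have hsr4 : mul a (mul s r) = (1 / 4 : ℝ) • mul s r := mem_eigen.mp hsr
  -- expand `b = b b`
  have hexp : mul b b = (α' * α') • a + mul s s + mul r r + (α' / 2) • r + (2 : ℝ) • mul s r := by
    have hsa : mul s a = 0 := by rw [hcomm, hsE]
    have hra : mul r a = (1 / 4 : ℝ) • r := by rw [hcomm, hrE]
    have hrs : mul r s = mul s r := hcomm _ _
    rw [hb]
    simp only [map_add, map_smul, LinearMap.add_apply, LinearMap.smul_apply, haa, hsE, hrE, hsa, hra, hrs]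
    module
  rw [hbb, hrrE] at hexp
  have hsum : (α' - α' * α' - c) • a + (s - mul s s - y₀) + (r - (α' / 2) • r - (2 : ℝ) • mul s r) = 0 := by
    have e : b = α' • a + s + r := hb
    rw [e] at hexp
    linear_combination (norm := module) hexp
  -- apply `mul a`
  have hA := congrArg (mul a) hsum
  simp only [map_add, map_sub, map_smul, haa, hsE, hrE, hss0, hy00, hsr4, map_zero] at hA
  have hB := congrArg (mul a) hA
  simp only [map_add, map_sub, map_smul, haa, hsE, hrE, hss0, hy00, hsr4, map_zero, smul_zero] at hB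
  have hpart4 : r - (α' / 2) • r - (2 : ℝ) • mul s r = 0 := by
    linear_combination (norm := module) (16 / 3 : ℝ) • hA - (16 / 3 : ℝ) • hB
  have hpart1 : (α' - α' * α' - c) • a = 0 := by
    linear_combination (norm := module) (-(1 / 3) : ℝ) • hA + (4 / 3 : ℝ) • hB
  have hc : c = α' - α' * α' := by
    have := (smul_eq_zero.mp hpart1).resolve_right ha0
    linarith
  have hsrr : mul s r = (1 / 2 - α' / 4 : ℝ) • r := by
    linear_combination (norm := module) (-(1 / 2) : ℝ) • hpart4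
  refine ⟨hfirst, ?_, ?_⟩
  · rw [← hsv, ← hrv]
    exact hsrr
  · rw [← hrv]
    have e1 := hassoc a r r
    rw [hrrE, map_add, map_smul, hn] at e1
    have hBy : B a y₀ = 0 := by
      have e2 := hassoc a a y₀
      rw [hy00, haa, map_zero] at e2
      exact e2.symm
    rw [hBy, hrE, LinearMap.map_smul, LinearMap.smul_apply, smul_eq_mul, smul_eq_mul] at e1
    rw [hc] at e1
    linarith

theorem main_5545 {μ₀ μ₁ : V ≃ₗ[ℝ] V} {a₀ a₁ : V} (hV : IsMajoranaAmbient mul B)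
    (h₀ : IsMajoranaPair mul B μ₀ a₀) (h₁ : IsMajoranaPair mul B μ₁ a₁)
    (hu₀ : ∀ a : V, IsMajoranaPair mul B μ₀ a → a = a₀) (hu₁ : ∀ a : V, IsMajoranaPair mul B μ₁ a → a = a₁)
    (hn₀ : B a₀ a₀ = 1) (hn₁ : B a₁ a₁ = 1) (hc : μ₀ * μ₁ = μ₁ * μ₀) (hne : a₀ ≠ a₁) :
    (B a₀ a₁ = 0 ∧ mul a₀ a₁ = 0) ∨ (B a₀ a₁ = 1 / 8 ∧ mul (a₀ + a₁ - (8 : ℝ) • mul a₀ a₁) (a₀ + a₁ - (8 : ℝ) • mul a₀ a₁) = a₀ + a₁ - (8 : ℝ) • mul a₀ a₁ ∧ mul a₀ (a₀ + a₁ - (8 : ℝ) • mul a₀ a₁) = (1 / 8 : ℝ) • (a₀ + (a₀ + a₁ - (8 : ℝ) • mul a₀ a₁) - a₁) ∧ mul a₁ (a₀ + a₁ - (8 : ℝ) • mul a₀ a₁) = (1 / 8 : ℝ) • (a₁ + (a₀ + a₁ - (8 : ℝ) • mul a₀ a₁) - a₀)) := by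
  have hfix₁ : μ₀ a₁ = a₁ := hu₁ _ (pair_transport h₁ h₀.1 hc)
  have hfix₀ : μ₁ a₀ = a₀ := hu₀ _ (pair_transport h₀ h₁.1 hc.symm)
  have haa₀ : mul a₀ a₀ = a₀ := h₀.2.2.1.1.2.1
  have haa₁ : mul a₁ a₁ = a₁ := h₁.2.2.1.1.2.1
  obtain ⟨A1, A2, A3⟩ := half hV h₀ haa₁ hfix₁ hn₀
  obtain ⟨B1, B2, B3⟩ := half hV h₁ haa₀ hfix₀ hn₁
  obtain ⟨hcomm, hsym, hpos, hassoc, hnorton⟩ := hV
  rw [hcomm a₁ a₀, hsym a₁ a₀] at B1 B2 B3
  obtain ⟨v, hv⟩ : ∃ v, v = mul a₀ a₁ := ⟨_, rfl⟩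
  obtain ⟨α, hα⟩ : ∃ α, α = B a₀ a₁ := ⟨_, rfl⟩
  rw [← hv, ← hα] at A1 A2 A3 B1 B2 B3 ⊢
  have h10 : mul a₁ a₀ = v := by rw [hcomm, hv]
  have hv0 : mul v a₀ = ((3 / 4 : ℝ) * α) • a₀ + (1 / 4 : ℝ) • v := by rw [hcomm, A1]
  have hv1 : mul v a₁ = ((3 / 4 : ℝ) * α) • a₁ + (1 / 4 : ℝ) • v := by rw [hcomm, B1]
  have hw0 : (16 : ℝ) • mul v v = (3 * α) • a₁ + (8 * α * α + 2 * α) • a₀ + (4 * α - 1) • v := by
    simp only [map_add, map_sub, map_smul, LinearMap.add_apply, LinearMap.sub_apply, LinearMap.smul_apply,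
      haa₀, ← hv, h10, A1, B1, hv0, hv1] at A2
    linear_combination (norm := module) (-1 : ℝ) • A2
  have hw1 : (16 : ℝ) • mul v v = (3 * α) • a₀ + (8 * α * α + 2 * α) • a₁ + (4 * α - 1) • v := by
    simp only [map_add, map_sub, map_smul, LinearMap.add_apply, LinearMap.sub_apply, LinearMap.smul_apply,
      haa₁, ← hv, h10, A1, B1, hv0, hv1] at B2
    linear_combination (norm := module) (-1 : ℝ) • B2
  have hdiff : (8 * α * α - α) • (a₀ - a₁) = 0 := by
    linear_combination (norm := module) hw1 - hw0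
  have hsub : a₀ - a₁ ≠ 0 := sub_ne_zero.mpr hne
  have hcase : 8 * α * α - α = 0 := (smul_eq_zero.mp hdiff).resolve_right hsub
  have hcase2 : α = 0 ∨ α = 1 / 8 := by
    have : α * (8 * α - 1) = 0 := by linarith
    rcases mul_eq_zero.mp this with h | h
    · exact Or.inl h
    · exact Or.inr (by linarith)
  rcases hcase2 with h0 | h8
  · left
    refine ⟨h0, ?_⟩
    subst h0
    by_contra hvne
    have hr : (4 : ℝ) • v - (4 * (0 : ℝ)) • a₀ ≠ 0 := by
      intro h
      apply hvne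
      have : (4 : ℝ) • v = 0 := by
        linear_combination (norm := module) h
      simpa using this
    have := hpos _ hr
    rw [A3] at this
    norm_num at this
  · right
    subst h8
    refine ⟨rfl, ?_, ?_, ?_⟩
    · simp only [map_add, map_sub, map_smul, LinearMap.add_apply, LinearMap.sub_apply, LinearMap.smul_apply,
        haa₀, haa₁, ← hv, h10, A1, B1, hv0, hv1]
      linear_combination (norm := module) (4 : ℝ) • hw0
    · simp only [map_add, map_sub, map_smul, LinearMap.add_apply, LinearMap.sub_apply, LinearMap.smul_apply,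
        haa₀, haa₁, ← hv, h10, A1, B1, hv0, hv1]
      module
    · simp only [map_add, map_sub, map_smul, LinearMap.add_apply, LinearMap.sub_apply, LinearMap.smul_apply,
        haa₀, haa₁, ← hv, h10, A1, B1, hv0, hv1]
      module

end CfsgLib.MajoranaComm
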